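import Cfsg.Prelude.Def_GeometricClasses

/-!
Interface for the Singer clause in dimension five: transitivity on pairs of independent points.
-/

set_option autoImplicit false

namespace Cfsg.Agent.MaxSub.SingerFive

open Matrix

variable {F : Type*} [Field F] {n : ℕ}

/-- `X` maps any pair of independent points to any other. -/
def PairTrans (X : Subgroup (GL (Fin n) F)) : Prop :=
  ∀ u v u' v' : Fin n → F, LinearIndependent F ![u, v] → LinearIndependent F ![u', v'] →
    ∃ g ∈ X, ∃ a b : F, (g : Matrix (Fin n) (Fin n) F) *ᵥ u = a • u' ∧
      (g : Matrix (Fin n) (Fin n) F) *ᵥ v = b • v'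

end Cfsg.Agent.MaxSub.SingerFive
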