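import Mathlib
import Cfsg.Agent.MaxSub.SingerFive.Def
import Cfsg.Agent.GeoClasses.TransvGen

/-!
A group transitive on pairs of independent points of `F⁵` is transitive on the hyperplanes through a
point and on those missing it (orbit counting against the dual space).
-/

set_option autoImplicit false
set_option linter.unusedSectionVars false

namespace Cfsg.Agent.MaxSub.SingerFive

open Matrix
open scoped MatrixGroups

variable {F : Type*} [Field F] {n : ℕ} {X : Subgroup (GL (Fin n) F)}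

local notation "V" => (Fin n → F)

/-- The linear map of a matrix. -/
abbrev lin (g : GL (Fin n) F) : (Fin n → F) →ₗ[F] (Fin n → F) :=
  Matrix.toLin' (g : Matrix (Fin n) (Fin n) F)

lemma lin_mul_apply (g h : GL (Fin n) F) (v : V) : lin (g * h) v = lin g (lin h v) := by
  simp [Matrix.mulVec_mulVec]

lemma lin_one_apply (v : V) : lin (1 : GL (Fin n) F) v = v := by simp

lemma lin_inv_apply (g : GL (Fin n) F) (v : V) : lin g⁻¹ (lin g v) = v := by
  rw [← lin_mul_apply, inv_mul_cancel, lin_one_apply]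

lemma lin_apply_inv (g : GL (Fin n) F) (v : V) : lin g (lin g⁻¹ v) = v := by
  rw [← lin_mul_apply, mul_inv_cancel, lin_one_apply]

lemma exists_pair (hn : 2 ≤ n) {u : V} (hu : u ≠ 0) :
    ∃ v : V, LinearIndependent F ![u, v] :=
  exists_linearIndependent_pair_of_one_lt_finrank (by rw [Module.finrank_fin_fun]; omega) hu

lemma indep_iff {u v : V} (hu : u ≠ 0) :
    LinearIndependent F ![u, v] ↔ v ∉ Submodule.span F {u} := by
  rw [LinearIndependent.pair_iff' hu, Submodule.mem_span_singleton, not_exists]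

/-- `X` is transitive on points. -/
theorem PairTrans.exists_point (hP : PairTrans X) (hn : 2 ≤ n) {u u' : V} (hu : u ≠ 0) (hu' : u' ≠ 0) :
    ∃ g ∈ X, ∃ a : F, a ≠ 0 ∧ lin g u = a • u' := by
  obtain ⟨v, hv⟩ := exists_pair hn hu
  obtain ⟨v', hv'⟩ := exists_pair hn hu'
  obtain ⟨g, hg, a, b, ha, -⟩ := hP u v u' v' hv hv'
  have e : lin g u = a • u' := by simpa using ha
  refine ⟨g, hg, a, fun h0 => hu ?_, e⟩
  rw [← lin_inv_apply g u, e, h0, zero_smul, map_zero]

/-- Equal numbers of fixed points give equal numbers of orbits. -/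
theorem card_orbits_eq {G A B : Type*} [Group G] [Finite G] [MulAction G A] [MulAction G B]
    [Finite A] [Finite B]
    (h : ∀ g : G, Nat.card (MulAction.fixedBy A g) = Nat.card (MulAction.fixedBy B g)) :
    Nat.card (MulAction.orbitRel.Quotient G A) = Nat.card (MulAction.orbitRel.Quotient G B) := by
  classical
  haveI := Fintype.ofFinite G
  haveI := Fintype.ofFinite A
  haveI := Fintype.ofFinite B
  haveI := Fintype.ofFinite (MulAction.orbitRel.Quotient G A)
  haveI := Fintype.ofFinite (MulAction.orbitRel.Quotient G B)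
  have hA := MulAction.sum_card_fixedBy_eq_card_orbits_mul_card_group G A
  have hB := MulAction.sum_card_fixedBy_eq_card_orbits_mul_card_group G B
  simp only [← Nat.card_eq_fintype_card] at hA hB
  simp only [h, hB] at hA
  exact (Nat.eq_of_mul_eq_mul_right Nat.card_pos hA).symm

/-- The elements of `X × Fˣ` fixing the point of `x`. -/
def lineGroup (X : Subgroup (GL (Fin n) F)) (x : V) : Subgroup (↥X × Fˣ) where
  carrier := {p | ∃ a : F, a ≠ 0 ∧ lin (p.1 : GL (Fin n) F) x = a • x}
  one_mem' := ⟨1, one_ne_zero, by simp⟩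
  mul_mem' := by
    rintro p p' ⟨a, ha, e⟩ ⟨b, hb, e'⟩
    refine ⟨b * a, mul_ne_zero hb ha, ?_⟩
    show lin ((p.1 : GL (Fin n) F) * (p'.1 : GL (Fin n) F)) x = _
    rw [lin_mul_apply, e', map_smul, e, smul_smul]
  inv_mem' := by
    rintro p ⟨a, ha, e⟩
    refine ⟨a⁻¹, inv_ne_zero ha, ?_⟩
    show lin (p.1 : GL (Fin n) F)⁻¹ x = _
    conv_lhs => rw [← inv_smul_smul₀ ha x, ← e, map_smul, lin_inv_apply]

instance lineAct (x : V) : MulAction (lineGroup X x) V where
  smul p v := ((p : ↥X × Fˣ).2 : F) • lin ((p : ↥X × Fˣ).1 : GL (Fin n) F) v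
  one_smul v := by
    show ((1 : Fˣ) : F) • lin (1 : GL (Fin n) F) v = v
    simp
  mul_smul p p' v := by
    show (((p : ↥X × Fˣ).2 * (p' : ↥X × Fˣ).2 : Fˣ) : F) •
        lin (((p : ↥X × Fˣ).1 : GL (Fin n) F) * ((p' : ↥X × Fˣ).1 : GL (Fin n) F)) v =
      ((p : ↥X × Fˣ).2 : F) • lin _ (((p' : ↥X × Fˣ).2 : F) • lin _ v)
    rw [lin_mul_apply, map_smul, smul_smul, Units.val_mul]

lemma lineAct_def (x : V) (p : lineGroup X x) (v : V) :
    p • v = ((p : ↥X × Fˣ).2 : F) • lin ((p : ↥X × Fˣ).1 : GL (Fin n) F) v := rfl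

/-- The dual space, as a separate type for the contragredient action. -/
abbrev DualSp (F : Type*) [Field F] (n : ℕ) : Type _ := (Fin n → F) →ₗ[F] F

instance lineActDual (x : V) : MulAction (lineGroup X x) (DualSp F n) where
  smul p φ := (((p : ↥X × Fˣ).2⁻¹ : Fˣ) : F) •
    ((φ : V →ₗ[F] F) ∘ₗ lin ((p : ↥X × Fˣ).1 : GL (Fin n) F)⁻¹)
  one_smul φ := by
    refine LinearMap.ext fun v => ?_
    show (((1 : Fˣ)⁻¹ : Fˣ) : F) • (φ : V →ₗ[F] F) (lin (1 : GL (Fin n) F)⁻¹ v) = _
    simp
  mul_smul p p' φ := by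
    refine LinearMap.ext fun v => ?_
    show ((((p : ↥X × Fˣ).2 * (p' : ↥X × Fˣ).2)⁻¹ : Fˣ) : F) •
        (φ : V →ₗ[F] F) (lin (((p : ↥X × Fˣ).1 : GL (Fin n) F) * ((p' : ↥X × Fˣ).1 : GL (Fin n) F))⁻¹ v) =
      (((p : ↥X × Fˣ).2⁻¹ : Fˣ) : F) • ((((p' : ↥X × Fˣ).2⁻¹ : Fˣ) : F) •
        (φ : V →ₗ[F] F) (lin ((p' : ↥X × Fˣ).1 : GL (Fin n) F)⁻¹ (lin ((p : ↥X × Fˣ).1 : GL (Fin n) F)⁻¹ v)))
    rw [_root_.mul_inv_rev ((p : ↥X × Fˣ).1 : GL (Fin n) F), lin_mul_apply, smul_smul,
      ← Units.val_mul, _root_.mul_inv]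

lemma lineActDual_apply (x : V) (p : lineGroup X x) (φ : DualSp F n) (v : V) :
    (p • φ : V →ₗ[F] F) v = (((p : ↥X × Fˣ).2⁻¹ : Fˣ) : F) *
      (φ : V →ₗ[F] F) (lin ((p : ↥X × Fˣ).1 : GL (Fin n) F)⁻¹ v) := rfl

lemma finrank_ker_dualMap (f : V →ₗ[F] V) :
    Module.finrank F (LinearMap.ker f.dualMap) = Module.finrank F (LinearMap.ker f) := by
  have h1 := LinearMap.finrank_range_add_finrank_ker f
  have h2 := LinearMap.finrank_range_add_finrank_ker f.dualMap
  rw [LinearMap.finrank_range_dualMap_eq_finrank_range, Subspace.dual_finrank_eq] at h2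
  omega

variable [Fintype F]

instance : Finite (DualSp F n) := by
  exact Finite.of_injective (fun φ => (φ : V → F)) DFunLike.coe_injective

lemma natCard_submodule {M : Type*} [AddCommGroup M] [Module F M] [Module.Finite F M]
    (W : Submodule F M) : Nat.card W = Nat.card F ^ Module.finrank F W :=
  Module.natCard_eq_pow_finrank (K := F)

lemma card_fixed_eq (x : V) (p : lineGroup X x) :
    Nat.card (MulAction.fixedBy V p) = Nat.card (MulAction.fixedBy (DualSp F n) p) := by
  set h : GL (Fin n) F := ((p : ↥X × Fˣ).1 : GL (Fin n) F)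
  set c : F := ((p : ↥X × Fˣ).2 : F) with hc
  have hc0 : c ≠ 0 := Units.ne_zero _
  set f : V →ₗ[F] V := c • lin h - LinearMap.id with hf
  have e1 : Nat.card (MulAction.fixedBy V p) = Nat.card (LinearMap.ker f) := by
    refine Nat.card_congr (Equiv.subtypeEquivRight fun v => ?_)
    show p • v = v ↔ v ∈ LinearMap.ker f
    rw [LinearMap.mem_ker, hf, LinearMap.sub_apply, sub_eq_zero]
    rfl
  have e2 : Nat.card (MulAction.fixedBy (DualSp F n) p) = Nat.card (LinearMap.ker f.dualMap) := by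
    refine Nat.card_congr (Equiv.subtypeEquivRight fun φ => ?_)
    show p • φ = φ ↔ (φ : V →ₗ[F] F) ∈ LinearMap.ker f.dualMap
    have key : ∀ v, (φ : V →ₗ[F] F) (f v) = c * (φ : V →ₗ[F] F) (lin h v) - (φ : V →ₗ[F] F) v :=
      fun v => by
        rw [hf, LinearMap.sub_apply, map_sub, LinearMap.smul_apply, map_smul, smul_eq_mul,
          LinearMap.id_apply]
    rw [LinearMap.mem_ker]
    constructor
    · intro e
      refine LinearMap.ext fun v => ?_
      have e' := DFunLike.congr_fun (F := V →ₗ[F] F) e (lin h v)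
      rw [lineActDual_apply, Units.val_inv_eq_inv_val, lin_inv_apply, ← hc] at e'
      rw [LinearMap.dualMap_apply, LinearMap.zero_apply, key, ← e', ← mul_assoc,
        mul_inv_cancel₀ hc0, one_mul, sub_self]
    · intro e
      refine LinearMap.ext (σ := RingHom.id F) fun v => ?_
      have e' := DFunLike.congr_fun (F := V →ₗ[F] F) e (lin h⁻¹ v)
      rw [LinearMap.dualMap_apply, LinearMap.zero_apply, key, lin_apply_inv, sub_eq_zero] at e'
      rw [lineActDual_apply, Units.val_inv_eq_inv_val, ← hc, ← e', ← mul_assoc,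
        inv_mul_cancel₀ hc0, one_mul]
  have k1 : Nat.card (LinearMap.ker f) = Nat.card F ^ Module.finrank F (LinearMap.ker f) :=
    Module.natCard_eq_pow_finrank
  have k2 := natCard_submodule (LinearMap.ker f.dualMap)
  rw [e1, e2, k1, k2, finrank_ker_dualMap]

/-- The three orbits on the dual space. -/
theorem PairTrans.dual_orbit (hP : PairTrans X) (hn : 2 ≤ n) {x : V} (hx : x ≠ 0)
    {φ ψ : V →ₗ[F] F} (hφ : φ ≠ 0) (hψ : ψ ≠ 0) (hxe : φ x = 0 ↔ ψ x = 0) :
    ∃ p : lineGroup X x, p • (φ : DualSp F n) = ψ := by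
  classical
  let cV : V → Fin 3 := fun v => if v = 0 then 0 else if v ∈ Submodule.span F {x} then 1 else 2
  have hsame : ∀ v w, cV v = cV w → ∃ p : lineGroup X x, p • v = w := by
    intro v w e
    by_cases hv : v = 0
    · subst hv
      have : w = 0 := by
        by_contra hw
        simp only [cV, hw, if_true, if_false] at e
        split_ifs at e <;> exact absurd e (by decide)
      exact ⟨1, by rw [one_smul, this]⟩
    have hw : w ≠ 0 := fun hw => by
      simp only [cV, hv, hw, if_true, if_false] at e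
      split_ifs at e <;> exact absurd e (by decide)
    simp only [cV, hv, hw, if_false] at e
    by_cases h1 : v ∈ Submodule.span F {x}
    · have h2 : w ∈ Submodule.span F {x} := by
        by_contra h2
        simp [h1, h2] at e
      obtain ⟨a, rfl⟩ := Submodule.mem_span_singleton.1 h1
      obtain ⟨b, rfl⟩ := Submodule.mem_span_singleton.1 h2
      have ha : a ≠ 0 := fun h => hv (by simp [h])
      have hb : b ≠ 0 := fun h => hw (by simp [h])
      refine ⟨⟨(1, Units.mk0 (b * a⁻¹) (mul_ne_zero hb (inv_ne_zero ha))), 1, one_ne_zero, by simp⟩, ?_⟩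
      rw [lineAct_def]
      simp [smul_smul, mul_assoc, inv_mul_cancel₀ ha]
    · have h2 : w ∉ Submodule.span F {x} := by
        intro h2
        simp [h1, h2] at e
      obtain ⟨g, hg, a, b, ea, eb⟩ := hP x v x w ((indep_iff hx).2 h1) ((indep_iff hx).2 h2)
      have ea' : lin g x = a • x := by simpa using ea
      have eb' : lin g v = b • w := by simpa using eb
      have ha : a ≠ 0 := fun h0 => hx (by rw [← lin_inv_apply g x, ea', h0, zero_smul, map_zero])
      have hb : b ≠ 0 := fun h0 => hv (by rw [← lin_inv_apply g v, eb', h0, zero_smul, map_zero])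
      refine ⟨⟨(⟨g, hg⟩, (Units.mk0 b hb)⁻¹), a, ha, ea'⟩, ?_⟩
      rw [lineAct_def]
      show ((Units.mk0 b hb)⁻¹ : Fˣ).val • lin g v = w
      rw [eb', Units.val_inv_eq_inv_val, Units.val_mk0, inv_smul_smul₀ hb]
  let cD : DualSp F n → Fin 3 := fun θ =>
    if (θ : V →ₗ[F] F) = 0 then 0 else if (θ : V →ₗ[F] F) x = 0 then 1 else 2
  have hinv : ∀ (p : lineGroup X x) (θ : DualSp F n), cD (p • θ) = cD θ := by
    intro p θ
    obtain ⟨a, ha, ea⟩ := p.2
    have ex : lin ((p : ↥X × Fˣ).1 : GL (Fin n) F)⁻¹ x = a⁻¹ • x := by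
      have h' := congrArg (lin ((p : ↥X × Fˣ).1 : GL (Fin n) F)⁻¹) ea
      rw [lin_inv_apply, map_smul] at h'
      exact ((inv_smul_eq_iff₀ ha).2 h').symm
    have hxp : (p • θ : V →ₗ[F] F) x = 0 ↔ (θ : V →ₗ[F] F) x = 0 := by
      rw [lineActDual_apply, ex, map_smul, smul_eq_mul, mul_eq_zero, mul_eq_zero]
      constructor
      · rintro (h | h | h)
        · exact absurd h (Units.ne_zero _)
        · exact absurd h (inv_ne_zero ha)
        · exact h
      · exact fun h => Or.inr (Or.inr h)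
    have h0 : (p • θ : V →ₗ[F] F) = 0 ↔ (θ : V →ₗ[F] F) = 0 := by
      constructor
      · intro h
        refine LinearMap.ext fun v => ?_
        have := DFunLike.congr_fun (F := V →ₗ[F] F) h (lin ((p : ↥X × Fˣ).1 : GL (Fin n) F) v)
        rw [lineActDual_apply, lin_inv_apply, LinearMap.zero_apply, mul_eq_zero] at this
        exact this.resolve_left (Units.ne_zero _)
      · intro h
        refine LinearMap.ext fun v => ?_
        rw [lineActDual_apply, h, LinearMap.zero_apply, mul_zero, LinearMap.zero_apply]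
    simp only [cD, hxp, h0]
  have hV3 : Nat.card (MulAction.orbitRel.Quotient (lineGroup X x) V) ≤ 3 := by
    have hsur : Function.Injective
        (fun o : MulAction.orbitRel.Quotient (lineGroup X x) V => cV o.out) := by
      intro o o' e
      obtain ⟨p, hp⟩ := hsame _ _ e
      rw [← Quotient.out_eq' o, ← Quotient.out_eq' o']
      refine Quotient.sound' ?_
      rw [MulAction.orbitRel_apply]
      exact ⟨p⁻¹, by simp only [← hp, inv_smul_smul]⟩
    simpa using Nat.card_le_card_of_injective _ hsur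
  let cD' : MulAction.orbitRel.Quotient (lineGroup X x) (DualSp F n) → Fin 3 :=
    Quotient.lift cD (by
      intro θ θ' h
      obtain ⟨p, hp⟩ := h
      rw [← hp]
      exact hinv p θ')
  have hsurj : Function.Surjective cD' := by
    obtain ⟨χ, hχ, -⟩ := GeoClasses.exists_functional (p := (⊥ : Submodule F V)) (x := x) (by simpa using hx)
    obtain ⟨w, hw⟩ := exists_pair hn hx
    obtain ⟨χ', hχ', hχ'x⟩ := GeoClasses.exists_functional ((indep_iff hx).1 hw)
    intro i
    fin_cases i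
    · exact ⟨Quotient.mk'' (0 : V →ₗ[F] F), by simp [cD', cD]⟩
    · refine ⟨Quotient.mk'' (χ' : DualSp F n), ?_⟩
      have h1 : χ' x = 0 := hχ'x x (Submodule.mem_span_singleton_self x)
      have h2 : χ' ≠ 0 := fun h => by simp [h] at hχ'
      show cD (χ' : DualSp F n) = 1
      simp [cD, h1, h2]
    · refine ⟨Quotient.mk'' (χ : DualSp F n), ?_⟩
      have h2 : χ ≠ 0 := fun h => by simp [h] at hχ
      show cD (χ : DualSp F n) = 2
      simp [cD, hχ, h2]
  have hcard : Nat.card (MulAction.orbitRel.Quotient (lineGroup X x) (DualSp F n)) = 3 := by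
    refine le_antisymm ((card_orbits_eq fun p : lineGroup X x => card_fixed_eq x p) ▸ hV3) ?_
    simpa using Nat.card_le_card_of_surjective _ hsurj
  have hbij : Function.Bijective cD' :=
    (Nat.bijective_iff_surjective_and_card cD').2 ⟨hsurj, by rw [hcard]; simp⟩
  have he : cD' (Quotient.mk'' (φ : DualSp F n)) = cD' (Quotient.mk'' (ψ : DualSp F n)) := by
    show cD (φ : DualSp F n) = cD (ψ : DualSp F n)
    simp [cD, hφ, hψ, hxe]
  obtain ⟨p, hp⟩ := MulAction.orbitRel_apply.1 (Quotient.exact' (hbij.1 he))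
  exact ⟨p⁻¹, by rw [← hp, inv_smul_smul]⟩

/-- Transitivity on hyperplanes with the same incidence to a point. -/
theorem PairTrans.exists_dual (hP : PairTrans X) (hn : 2 ≤ n) {x : V} (hx : x ≠ 0)
    {φ ψ : V →ₗ[F] F} (hφ : φ ≠ 0) (hψ : ψ ≠ 0) (hxe : φ x = 0 ↔ ψ x = 0) :
    ∃ g ∈ X, ∃ a c : F, a ≠ 0 ∧ c ≠ 0 ∧ lin g x = a • x ∧ ∀ v, ψ (lin g v) = c * φ v := by
  obtain ⟨p, hp⟩ := hP.dual_orbit hn hx hφ hψ hxe
  obtain ⟨a, ha, ea⟩ := p.2
  refine ⟨((p : ↥X × Fˣ).1 : GL (Fin n) F), (p : ↥X × Fˣ).1.2, a,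
    (((p : ↥X × Fˣ).2⁻¹ : Fˣ) : F), ha, Units.ne_zero _, ea, fun v => ?_⟩
  rw [← hp, lineActDual_apply, lin_inv_apply]

/-- `q ^ (n - 1)` divides the order of `X`. -/
theorem PairTrans.pow_dvd_card (hP : PairTrans X) (hn : 2 ≤ n) :
    Fintype.card F ^ (n - 1) ∣ Nat.card X := by
  classical
  set q := Fintype.card F
  haveI : NeZero n := ⟨by omega⟩
  set x : V := Pi.single 0 1
  have hx : x ≠ 0 := fun h => by simpa [x] using congrFun h 0
  obtain ⟨χ, hχ, -⟩ := GeoClasses.exists_functional (p := (⊥ : Submodule F V)) (x := x) (by simpa using hx)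
  have horb : Nat.card (MulAction.orbit (lineGroup X x) (χ : DualSp F n)) =
      Nat.card {θ : V →ₗ[F] F // θ x ≠ 0} := by
    refine Nat.card_congr (Equiv.subtypeEquivRight fun θ => ?_)
    constructor
    · rintro ⟨p, rfl⟩
      obtain ⟨a, ha, ea⟩ := p.2
      have ex : lin ((p : ↥X × Fˣ).1 : GL (Fin n) F)⁻¹ x = a⁻¹ • x := by
        have h' := congrArg (lin ((p : ↥X × Fˣ).1 : GL (Fin n) F)⁻¹) ea
        rw [lin_inv_apply, map_smul] at h'
        exact ((inv_smul_eq_iff₀ ha).2 h').symm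
      show (((p : ↥X × Fˣ).2⁻¹ : Fˣ) : F) * χ _ ≠ 0
      rw [ex, map_smul, hχ, smul_eq_mul, mul_one]
      exact mul_ne_zero (Units.ne_zero _) (inv_ne_zero ha)
    · intro hθ
      have hθ' : θ x ≠ 0 := hθ
      have h0 : θ ≠ 0 := fun h => hθ' (by simp [h])
      have h1 : χ ≠ 0 := fun h => by simp [h] at hχ
      exact hP.dual_orbit hn hx h1 h0 (by simp [hθ', hχ])
  let e : (V →ₗ[F] F) →ₗ[F] F := LinearMap.applyₗ x
  have hsur : Function.Surjective e := fun t => ⟨t • χ, by simp [e, hχ]⟩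
  have hcard : Nat.card {θ : V →ₗ[F] F // θ x ≠ 0} = (q - 1) * q ^ (n - 1) := by
    haveI : Finite (V →ₗ[F] F) := Finite.of_injective (fun φ => (φ : V → F)) DFunLike.coe_injective
    have hk : Nat.card {θ : V →ₗ[F] F // θ x = 0} = q ^ (n - 1) := by
      show Nat.card (LinearMap.ker e) = _
      have h1 := LinearMap.finrank_range_add_finrank_ker e
      rw [LinearMap.range_eq_top.2 hsur, finrank_top, Module.finrank_self, Subspace.dual_finrank_eq,
        Module.finrank_fin_fun] at h1
      rw [Module.natCard_eq_pow_finrank (K := F) , Nat.card_eq_fintype_card,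
        show Module.finrank F (LinearMap.ker e) = n - 1 by omega]
    have ht : Nat.card (V →ₗ[F] F) = q ^ n := by
      rw [Module.natCard_eq_pow_finrank (K := F) , Nat.card_eq_fintype_card,
        Subspace.dual_finrank_eq, Module.finrank_fin_fun]
    have hsum := Nat.card_congr (Equiv.sumCompl fun θ : V →ₗ[F] F => θ x = 0)
    rw [Nat.card_sum, hk, ht] at hsum
    have hqn : q ^ n = q ^ (n - 1) * q := by rw [← pow_succ]; congr 1; omega
    rw [hqn] at hsum
    have hsum' : q ^ (n - 1) + Nat.card {θ : V →ₗ[F] F // θ x ≠ 0} = q ^ (n - 1) * q := hsum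
    rw [Nat.sub_mul, mul_comm q, one_mul]
    omega
  have hdvd : (q - 1) * q ^ (n - 1) ∣ Nat.card X * (q - 1) := by
    rw [← hcard, ← horb]
    have hG : Nat.card (lineGroup X x) ∣ Nat.card X * (q - 1) := by
      have h := Subgroup.card_subgroup_dvd_card (lineGroup X x)
      rwa [Nat.card_prod, Nat.card_units, Nat.card_eq_fintype_card (α := F)] at h
    refine dvd_trans ?_ hG
    rw [Nat.card_congr (MulAction.orbitEquivQuotientStabilizer _ _)]
    exact Subgroup.card_quotient_dvd_card _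
  rw [mul_comm (Nat.card X)] at hdvd
  exact Nat.dvd_of_mul_dvd_mul_left (by have := Fintype.one_lt_card (α := F); omega) hdvd

end Cfsg.Agent.MaxSub.SingerFive
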