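import Mathlib
import Cfsg.Agent.MaxSub.SingerFive.Antiflag

/-!
A group transitive on pairs of independent points of `F⁵` contains, for every such pair `(x, u)`, a
non-identity element which fixes `x` and is trivial modulo the line `⟨x, u⟩`.
-/

set_option autoImplicit false
set_option linter.unusedSectionVars false

namespace Cfsg.Agent.MaxSub.SingerFive

open Matrix
open scoped MatrixGroups

variable {F : Type*} [Field F] {n : ℕ} {X : Subgroup (GL (Fin n) F)}

local notation "V" => (Fin n → F)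

/-- `g` fixes `x`, and is trivial modulo `⟨x⟩` on `u` and modulo `⟨x, u⟩` everywhere. -/
structure Cen (X : Subgroup (GL (Fin n) F)) (g : GL (Fin n) F) (x u : Fin n → F) : Prop where
  indep : LinearIndependent F ![x, u]
  mem : g ∈ X
  ne_one : g ≠ 1
  fix : lin g x = x
  low : lin g u - u ∈ Submodule.span F {x}
  img : ∀ v, lin g v - v ∈ Submodule.span F {x, u}

lemma eq_one_of_lin {g : GL (Fin n) F} (h : ∀ v, lin g v = v) : g = 1 :=
  GeoClasses.gl_ext_mulVec fun v => by simpa using h v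

variable [Fintype F]

/-- A `p`-group fixes a vector modulo a proper invariant subspace. -/
theorem exists_fixed_mod {p : ℕ} [Fact p.Prime] [CharP F p] {P : Subgroup (GL (Fin n) F)}
    (hP : IsPGroup p P) {W : Submodule F V} (hW : W ≠ ⊤) (hinv : ∀ g ∈ P, ∀ w ∈ W, lin g w ∈ W) :
    ∃ w ∉ W, ∀ g ∈ P, lin g w - w ∈ W := by
  classical
  letI act : MulAction P (V ⧸ W) :=
    { smul := fun g v => W.mapQ W (lin (g : GL (Fin n) F)) (fun w hw => hinv g g.2 w hw) v
      one_smul := fun v => by
        induction v using Submodule.Quotient.induction_on with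
        | H v =>
          show Submodule.Quotient.mk (lin (1 : GL (Fin n) F) v) = _
          rw [lin_one_apply]
      mul_smul := fun g h v => by
        induction v using Submodule.Quotient.induction_on with
        | H v =>
          show Submodule.Quotient.mk (lin ((g : GL (Fin n) F) * (h : GL (Fin n) F)) v) =
            Submodule.Quotient.mk (lin (g : GL (Fin n) F) (lin (h : GL (Fin n) F) v))
          rw [lin_mul_apply] }
  haveI : Finite (V ⧸ W) := Finite.of_surjective _ (Submodule.Quotient.mk_surjective W)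
  have hdvd : p ∣ Nat.card (V ⧸ W) := by
    have h1 : Nat.card (V ⧸ W) = Nat.card F ^ Module.finrank F (V ⧸ W) :=
      Module.natCard_eq_pow_finrank
    have hlt := Submodule.finrank_lt hW
    have h2 := W.finrank_quotient_add_finrank
    rw [h1]
    refine dvd_pow ?_ (by omega)
    obtain ⟨k, -, hk⟩ := FiniteField.card F p
    rw [Nat.card_eq_fintype_card, hk]
    exact dvd_pow_self p k.ne_zero
  have h0 : (0 : V ⧸ W) ∈ MulAction.fixedPoints P (V ⧸ W) := fun g => by
    show W.mapQ W (lin (g : GL (Fin n) F)) _ 0 = 0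
    simp
  obtain ⟨b, hb, hb0⟩ := hP.exists_fixed_point_of_prime_dvd_card_of_fixed_point (V ⧸ W) hdvd h0
  obtain ⟨w, rfl⟩ := Submodule.Quotient.mk_surjective W b
  refine ⟨w, fun hw => hb0 ((Submodule.Quotient.mk_eq_zero W).2 hw).symm, fun g hg => ?_⟩
  exact (Submodule.Quotient.eq W).1 (hb ⟨g, hg⟩)

lemma finrank_sup_singleton {W : Submodule F V} {w : V} (hw : w ∉ W) :
    Module.finrank F (W ⊔ Submodule.span F {w} : Submodule F V) = Module.finrank F W + 1 := by
  have hw0 : w ≠ 0 := fun h => hw (h ▸ W.zero_mem)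
  have hd : W ⊓ Submodule.span F {w} = ⊥ := by
    refine Submodule.eq_bot_iff _ |>.2 fun v hv => ?_
    obtain ⟨c, rfl⟩ := Submodule.mem_span_singleton.1 hv.2
    by_contra hc
    have hc0 : c ≠ 0 := fun h => hc (by simp [h])
    exact hw (by simpa [inv_smul_smul₀ hc0] using W.smul_mem c⁻¹ hv.1)
  have h := Submodule.finrank_sup_add_finrank_inf_eq W (Submodule.span F {w})
  rw [hd, finrank_bot, add_zero, finrank_span_singleton hw0] at h
  exact h

/-- Some pair has an element trivial modulo its line. -/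
theorem exists_cen {X : Subgroup (GL (Fin 5) F)} (hX : PairTrans X) :
    ∃ g x u, Cen X g x u := by
  classical
  obtain ⟨p, hchar⟩ := CharP.exists F
  haveI : Fact p.Prime := ⟨CharP.char_is_prime F p⟩
  obtain ⟨k, hp, hk⟩ := FiniteField.card F p
  set q := Fintype.card F
  obtain ⟨Q⟩ : Nonempty (Sylow p X) := inferInstance
  set P : Subgroup (GL (Fin 5) F) := (Q : Subgroup X).map X.subtype
  have hPX : P ≤ X := Subgroup.map_subtype_le _
  have hPp : IsPGroup p P := Q.isPGroup'.map _
  have hbig : q ^ 3 < Nat.card P := by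
    have h4 : q ^ 4 ∣ Nat.card X := hX.pow_dvd_card (by norm_num)
    rw [hk, ← pow_mul] at h4
    have h5 : q ^ 4 ∣ Nat.card (Q : Subgroup X) := by
      rw [hk, ← pow_mul]; exact Q.pow_dvd_card_of_pow_dvd_card h4
    have hc : Nat.card P = Nat.card (Q : Subgroup X) :=
      Subgroup.card_map_of_injective (Subgroup.subtype_injective X)
    have h6 := Nat.le_of_dvd Nat.card_pos h5
    have h7 : q ^ 3 < q ^ 4 :=
      Nat.pow_lt_pow_right Fintype.one_lt_card (by norm_num)
    omega
  have hfr : Module.finrank F (Fin 5 → F) = 5 := Module.finrank_fin_fun F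
  -- the flag
  obtain ⟨x, hx, hx1⟩ := exists_fixed_mod hPp (W := (⊥ : Submodule F (Fin 5 → F))) bot_ne_top
    (fun g _ w hw => by rw [(Submodule.mem_bot F).1 hw]; simp)
  have hx0 : x ≠ 0 := fun h => hx (by simp [h])
  have hfix : ∀ g ∈ P, lin g x = x := fun g hg => sub_eq_zero.1 ((Submodule.mem_bot F).1 (hx1 g hg))
  set W1 : Submodule F (Fin 5 → F) := Submodule.span F {x} with hW1def
  have r1 : Module.finrank F W1 = 1 := finrank_span_singleton hx0
  have i1 : ∀ g ∈ P, ∀ w ∈ W1, lin g w ∈ W1 := fun g hg w hw => by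
    obtain ⟨c, rfl⟩ := Submodule.mem_span_singleton.1 hw
    rw [map_smul, hfix g hg]
    exact W1.smul_mem c (Submodule.mem_span_singleton_self x)
  have step : ∀ (W : Submodule F (Fin 5 → F)) (w : Fin 5 → F),
      (∀ g ∈ P, ∀ v ∈ W, lin g v ∈ W) → (∀ g ∈ P, lin g w - w ∈ W) →
      ∀ g ∈ P, ∀ v ∈ W ⊔ Submodule.span F {w}, lin g v ∈ W ⊔ Submodule.span F {w} := by
    intro W w hi hw g hg v hv
    obtain ⟨a, ha, b, hb, rfl⟩ := Submodule.mem_sup.1 hv
    obtain ⟨c, rfl⟩ := Submodule.mem_span_singleton.1 hb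
    rw [map_add, map_smul, show lin g a + c • lin g w = (lin g a + c • (lin g w - w)) + c • w by
      rw [smul_sub]; abel]
    exact Submodule.add_mem_sup (W.add_mem (hi g hg a ha) (W.smul_mem c (hw g hg)))
      (Submodule.smul_mem _ c (Submodule.mem_span_singleton_self w))
  have ne_top : ∀ W : Submodule F (Fin 5 → F), Module.finrank F W < 5 → W ≠ ⊤ := fun W h e => by
    rw [e, finrank_top, hfr] at h; omega
  obtain ⟨u, hu, hu1⟩ := exists_fixed_mod hPp (ne_top W1 (by omega)) i1
  set W2 := W1 ⊔ Submodule.span F {u}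
  have r2 : Module.finrank F W2 = 2 := by rw [finrank_sup_singleton hu, r1]
  have i2 := step W1 u i1 hu1
  obtain ⟨w3, hw3, hw31⟩ := exists_fixed_mod hPp (ne_top W2 (by omega)) i2
  set W3 := W2 ⊔ Submodule.span F {w3}
  have r3 : Module.finrank F W3 = 3 := by rw [finrank_sup_singleton hw3, r2]
  have i3 := step W2 w3 i2 hw31
  obtain ⟨w4, hw4, hw41⟩ := exists_fixed_mod hPp (ne_top W3 (by omega)) i3
  set W4 := W3 ⊔ Submodule.span F {w4}
  have r4 : Module.finrank F W4 = 4 := by rw [finrank_sup_singleton hw4, r3]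
  have i4 := step W3 w4 i3 hw41
  obtain ⟨w5, hw5, hw51⟩ := exists_fixed_mod hPp (ne_top W4 (by omega)) i4
  have htop : W4 ⊔ Submodule.span F {w5} = ⊤ := by
    refine Submodule.eq_top_of_finrank_eq ?_
    rw [finrank_sup_singleton hw5, r4, hfr]
  -- the three coordinates of an element modulo `W2`
  have c4 : ∀ g : P, ∃ c : F, lin (g : GL (Fin 5) F) w4 - w4 - c • w3 ∈ W2 := fun g => by
    obtain ⟨a, ha, b, hb, e⟩ := Submodule.mem_sup.1 (hw41 g g.2)
    obtain ⟨c, rfl⟩ := Submodule.mem_span_singleton.1 hb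
    exact ⟨c, by rw [← e, add_sub_cancel_right]; exact ha⟩
  have c5 : ∀ g : P, ∃ c d : F, lin (g : GL (Fin 5) F) w5 - w5 - (c • w3 + d • w4) ∈ W2 := fun g => by
    obtain ⟨a', ha', b', hb', e⟩ := Submodule.mem_sup.1 (hw51 g g.2)
    obtain ⟨a, ha, b, hb, rfl⟩ := Submodule.mem_sup.1 ha'
    obtain ⟨c, rfl⟩ := Submodule.mem_span_singleton.1 hb
    obtain ⟨d, rfl⟩ := Submodule.mem_span_singleton.1 hb'
    exact ⟨c, d, by rw [← e, add_assoc, add_sub_cancel_right]; exact ha⟩
  choose f4 hf4 using c4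
  choose f5 f5' hf5 using c5
  obtain ⟨g, h, hne, heq⟩ : ∃ g h : P, g ≠ h ∧ (f4 g, f5 g, f5' g) = (f4 h, f5 h, f5' h) := by
    by_contra hcon
    push Not at hcon
    have hinj : Function.Injective fun g : P => (f4 g, f5 g, f5' g) := fun g h e => by
      by_contra hgh; exact hcon g h hgh e
    have := Nat.card_le_card_of_injective _ hinj
    rw [Nat.card_prod, Nat.card_prod, Nat.card_eq_fintype_card (α := F)] at this
    have hq3 : q ^ 3 = q * (q * q) := by ring
    rw [hq3] at hbig
    exact absurd this (not_le.2 hbig)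
  simp only [Prod.mk.injEq] at heq
  obtain ⟨h4, h5, h5'⟩ := heq
  set t : GL (Fin 5) F := (h : GL (Fin 5) F)⁻¹ * (g : GL (Fin 5) F) with ht
  have htP : t ∈ P := P.mul_mem (P.inv_mem h.2) g.2
  have key : ∀ w, lin (g : GL (Fin 5) F) w - lin (h : GL (Fin 5) F) w ∈ W2 → lin t w - w ∈ W2 := by
    intro w hw
    have := i2 _ (P.inv_mem h.2) _ hw
    rwa [map_sub, ← lin_mul_apply, lin_inv_apply, ← ht] at this
  have span2 : W2 = Submodule.span F {x, u} := by
    rw [Submodule.span_insert]
  refine ⟨t, x, u, (indep_iff hx0).2 hu, hPX htP, ?_, hfix t htP, hu1 t htP, fun v => ?_⟩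
  · exact fun h1 => hne (Subtype.ext (inv_mul_eq_one.1 h1).symm)
  rw [← span2]
  have hv : v ∈ W4 ⊔ Submodule.span F {w5} := htop ▸ Submodule.mem_top
  have k4 : lin t w4 - w4 ∈ W2 := key w4 (by
    have := W2.sub_mem (hf4 g) (hf4 h)
    rw [h4] at this
    convert this using 1
    abel)
  have k5 : lin t w5 - w5 ∈ W2 := key w5 (by
    have := W2.sub_mem (hf5 g) (hf5 h)
    rw [h5, h5'] at this
    convert this using 1
    abel)
  let S : Submodule F (Fin 5 → F) := W2.comap (lin t - LinearMap.id)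
  have hS : W4 ⊔ Submodule.span F {w5} ≤ S := by
    refine sup_le (sup_le (sup_le (sup_le ?_ ?_) ?_) ?_) ?_ <;>
      rw [Submodule.span_singleton_le_iff_mem] <;>
      simp only [S, Submodule.mem_comap, LinearMap.sub_apply, LinearMap.id_apply]
    · rw [hfix t htP, sub_self]; exact W2.zero_mem
    · exact Submodule.mem_sup_left (hu1 t htP)
    · exact hw31 t htP
    · exact k4
    · exact k5
  exact hS hv

/-- Every pair has such an element. -/
theorem cen_all {X : Subgroup (GL (Fin 5) F)} (hX : PairTrans X) {x u : Fin 5 → F}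
    (hxu : LinearIndependent F ![x, u]) : ∃ g, Cen X g x u := by
  obtain ⟨g, x₀, u₀, hg⟩ := exists_cen hX
  have hx0 : x₀ ≠ 0 := hg.indep.ne_zero 0
  have hu0 : u₀ ≠ 0 := hg.indep.ne_zero 1
  obtain ⟨k, hk, a, b, ea, eb⟩ := hX x₀ u₀ x u hg.indep hxu
  have ea' : lin k x₀ = a • x := by simpa using ea
  have eb' : lin k u₀ = b • u := by simpa using eb
  have ha : a ≠ 0 := fun h => hx0 (by rw [← lin_inv_apply k x₀, ea', h, zero_smul, map_zero])
  have hb : b ≠ 0 := fun h => hu0 (by rw [← lin_inv_apply k u₀, eb', h, zero_smul, map_zero])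
  refine ⟨k * g * k⁻¹, hxu, X.mul_mem (X.mul_mem hk hg.mem) (X.inv_mem hk), ?_, ?_, ?_, fun v => ?_⟩
  · intro h
    exact hg.ne_one (mul_left_cancel (a := k) (by
      rw [mul_one]; calc k * g = k * g * k⁻¹ * k := by group
        _ = k := by rw [h, one_mul]))
  · have ex : lin k⁻¹ x = a⁻¹ • x₀ := by
      rw [← lin_inv_apply k x₀, ea', map_smul, inv_smul_smul₀ ha]
    rw [lin_mul_apply, lin_mul_apply, ex, map_smul, hg.fix, map_smul, ea', inv_smul_smul₀ ha]
  · have eu : lin k⁻¹ u = b⁻¹ • u₀ := by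
      rw [← lin_inv_apply k u₀, eb', map_smul, inv_smul_smul₀ hb]
    obtain ⟨c, hc⟩ := Submodule.mem_span_singleton.1 hg.low
    rw [lin_mul_apply, lin_mul_apply, eu, map_smul, ← sub_add_cancel (lin g u₀) u₀, ← hc, map_smul,
      map_add, map_smul, ea', eb', smul_add, inv_smul_smul₀ hb, add_sub_cancel_right, smul_smul,
      smul_smul]
    exact Submodule.smul_mem _ _ (Submodule.mem_span_singleton_self x)
  · obtain ⟨c, d, hcd⟩ := Submodule.mem_span_pair.1 (hg.img (lin k⁻¹ v))
    have e2 : lin (k * g * k⁻¹) v - v = (c * a) • x + (d * b) • u := by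
      conv_lhs => arg 2; rw [← lin_apply_inv k v]
      rw [lin_mul_apply, lin_mul_apply, ← map_sub, ← hcd, map_add, map_smul, map_smul, ea', eb',
        smul_smul, smul_smul]
    rw [e2]
    exact Submodule.mem_span_pair.2 ⟨_, _, rfl⟩

end Cfsg.Agent.MaxSub.SingerFive
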