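import Mathlib
import Cfsg.Agent.MaxSub.SingerFive.Kernel

/-!
A group transitive on pairs of independent points of `F⁵` contains a transvection.
-/

set_option autoImplicit false
set_option linter.unusedSectionVars false

namespace Cfsg.Agent.MaxSub.SingerFive

open Matrix
open scoped MatrixGroups

variable {F : Type*} [Field F] {X : Subgroup (GL (Fin 5) F)} {g h : GL (Fin 5) F} {x u u' : Fin 5 → F}

local notation "V" => (Fin 5 → F)

/-- No transvections in `X`. -/
def NoTransv (X : Subgroup (GL (Fin 5) F)) : Prop :=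
  ∀ g ∈ X, ∀ w : Fin 5 → F, lin g w = w → (∀ v, lin g v - v ∈ Submodule.span F {w}) → g = 1

/-- The coordinates of `g - 1` along `x` and `u`. -/
def Coord (g : GL (Fin 5) F) (x u : Fin 5 → F) (l m : (Fin 5 → F) →ₗ[F] F) : Prop :=
  ∀ v, lin g v - v = l v • x + m v • u

lemma indep_coeff (hxu : LinearIndependent F ![x, u]) {a b : F} (h : a • x + b • u = 0) :
    a = 0 ∧ b = 0 :=
  LinearIndependent.pair_iff.1 hxu a b h

lemma Cen.exists_coord (hg : Cen X g x u) :
    ∃ l m : V →ₗ[F] F, Coord g x u l m ∧ l x = 0 ∧ m x = 0 ∧ m u = 0 := by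
  have hx : x ≠ 0 := hg.indep.ne_zero 0
  have hux : u ∉ Submodule.span F {x} := (indep_iff hx).1 hg.indep
  have hu0 : u ≠ 0 := hg.indep.ne_zero 1
  have hxu : x ∉ Submodule.span F {u} := (indep_iff hu0).1 (LinearIndependent.pair_symm_iff.1 hg.indep)
  obtain ⟨θ, hθu, hθ⟩ := GeoClasses.exists_functional hux
  obtain ⟨η, hηx, hη⟩ := GeoClasses.exists_functional hxu
  refine ⟨η ∘ₗ (lin g - LinearMap.id), θ ∘ₗ (lin g - LinearMap.id), fun v => ?_, ?_, ?_, ?_⟩
  · obtain ⟨c, d, hcd⟩ := Submodule.mem_span_pair.1 (hg.img v)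
    simp only [LinearMap.comp_apply, LinearMap.sub_apply, LinearMap.id_apply]
    rw [← hcd, map_add, map_add, map_smul, map_smul, map_smul, map_smul, hθu, hηx,
      hθ x (Submodule.mem_span_singleton_self x), hη u (Submodule.mem_span_singleton_self u)]
    simp
  · simp only [LinearMap.comp_apply, LinearMap.sub_apply, LinearMap.id_apply, hg.fix, sub_self, map_zero]
  · simp only [LinearMap.comp_apply, LinearMap.sub_apply, LinearMap.id_apply, hg.fix, sub_self, map_zero]
  · simp only [LinearMap.comp_apply, LinearMap.sub_apply, LinearMap.id_apply]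
    exact hθ _ hg.low

lemma Coord.apply {l m : V →ₗ[F] F} (hc : Coord g x u l m) (v : V) :
    lin g v = v + (l v • x + m v • u) := by
  rw [← hc v]; abel

lemma Cen.axis_ne (hNT : NoTransv X) (hg : Cen X g x u) {l m : V →ₗ[F] F} (hc : Coord g x u l m) :
    m ≠ 0 := by
  intro h0
  refine hg.ne_one (hNT g hg.mem x hg.fix fun v => ?_)
  rw [hc v, h0, LinearMap.zero_apply, zero_smul, add_zero]
  exact Submodule.smul_mem _ _ (Submodule.mem_span_singleton_self x)

/-- Conjugates. -/
lemma Cen.conj (hg : Cen X g x u) {k : GL (Fin 5) F} (hk : k ∈ X) {y w : V} {a b c : F} (ha : a ≠ 0)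
    (hb : b ≠ 0) (ex : lin k x = a • y) (eu : lin k u = b • w + c • y) :
    Cen X (k * g * k⁻¹) y w ∧ (lin (k * g * k⁻¹) w = w → lin g u = u) ∧
      ∀ l m : V →ₗ[F] F, Coord g x u l m →
        Coord (k * g * k⁻¹) y w ((a • l + c • m) ∘ₗ lin k⁻¹) ((b • m) ∘ₗ lin k⁻¹) := by
  obtain ⟨l, m, hc, hlx, hmx, hmu⟩ := hg.exists_coord
  have hy : lin k⁻¹ y = a⁻¹ • x := by
    have h' := congrArg (lin k⁻¹) ex
    rw [lin_inv_apply, map_smul] at h'
    exact ((inv_smul_eq_iff₀ ha).2 h').symm
  have hw : lin k⁻¹ w = b⁻¹ • u - (b⁻¹ * c * a⁻¹) • x := by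
    have h' := congrArg (lin k⁻¹) eu
    rw [lin_inv_apply, map_add, map_smul, map_smul, hy, smul_smul] at h'
    rw [h', smul_add, inv_smul_smul₀ hb, smul_smul, mul_assoc]
    abel
  have hcoord : ∀ l m : V →ₗ[F] F, Coord g x u l m →
      Coord (k * g * k⁻¹) y w ((a • l + c • m) ∘ₗ lin k⁻¹) ((b • m) ∘ₗ lin k⁻¹) := by
    intro l m hc v
    have e : lin (k * g * k⁻¹) v - v = lin k (lin g (lin k⁻¹ v) - lin k⁻¹ v) := by
      rw [map_sub, lin_apply_inv, lin_mul_apply, lin_mul_apply]
    rw [e, hc (lin k⁻¹ v), map_add, map_smul, map_smul, ex, eu]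
    simp only [LinearMap.comp_apply, LinearMap.add_apply, LinearMap.smul_apply, smul_eq_mul]
    module
  have hind : LinearIndependent F ![y, w] := by
    rw [LinearIndependent.pair_iff]
    intro s t hst
    have h' := congrArg (lin k⁻¹) hst
    rw [map_add, map_smul, map_smul, hy, hw, map_zero] at h'
    have h'' : (s * a⁻¹ - t * (b⁻¹ * c * a⁻¹)) • x + (t * b⁻¹) • u = 0 := by
      rw [← h']; module
    obtain ⟨h1, h2⟩ := indep_coeff hg.indep h''
    have ht : t = 0 := by simpa [hb] using h2
    subst ht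
    exact ⟨by simpa [ha] using h1, rfl⟩
  refine ⟨⟨hind, X.mul_mem (X.mul_mem hk hg.mem) (X.inv_mem hk), fun h1 => hg.ne_one ?_, ?_, ?_, fun v => ?_⟩,
    fun hfix => ?_, hcoord⟩
  · calc g = k⁻¹ * (k * g * k⁻¹) * k := by group
      _ = 1 := by rw [h1]; group
  · rw [lin_mul_apply, lin_mul_apply, hy, map_smul, hg.fix, map_smul, ex, inv_smul_smul₀ ha]
  · rw [hcoord l m hc w]
    simp only [LinearMap.comp_apply, hw, LinearMap.smul_apply, map_sub, map_smul, hmu, hmx,
      smul_zero, sub_zero, zero_smul, add_zero]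
    exact Submodule.smul_mem _ _ (Submodule.mem_span_singleton_self y)
  · rw [hcoord l m hc v]
    exact Submodule.mem_span_pair.2 ⟨_, _, rfl⟩
  · have h' : lin g (lin k⁻¹ w) = lin k⁻¹ w := by
      have := congrArg (lin k⁻¹) hfix
      rwa [lin_mul_apply, lin_mul_apply, lin_inv_apply] at this
    rw [hw, map_sub, map_smul, map_smul, hg.fix, sub_left_inj] at h'
    exact smul_right_injective V (inv_ne_zero hb) h'

lemma commutator_shift (g h : GL (Fin 5) F) (v : V) :
    lin ((h * g)⁻¹ * (g * h)) v - v = lin (h * g)⁻¹ (lin (g * h) v - lin (h * g) v) := by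
  rw [map_sub, lin_inv_apply, lin_mul_apply (h * g)⁻¹]

lemma fix_inv {g : GL (Fin 5) F} {w : V} (h : lin g w = w) : lin g⁻¹ w = w := by
  conv_lhs => rw [← h]
  rw [lin_inv_apply]

/-- Two elements each fixing the other's centre modulo `x` commute. -/
lemma axis_relation (hNT : NoTransv X) (hg : Cen X g x u) (hh : Cen X h x u')
    {l m l' m' : V →ₗ[F] F} (hc : Coord g x u l m) (hc' : Coord h x u' l' m')
    (h1 : m u' = 0) (h2 : m' u = 0) : l u' • m' = l' u • m := by
  have lx : ∀ v, lin g v = v + (l v • x + m v • u) := hc.apply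
  have lx' : ∀ v, lin h v = v + (l' v • x + m' v • u') := hc'.apply
  have hl : l x = 0 ∧ m x = 0 := by
    have := hc x
    rw [hg.fix, sub_self] at this
    exact indep_coeff hg.indep this.symm
  have hl' : l' x = 0 ∧ m' x = 0 := by
    have := hc' x
    rw [hh.fix, sub_self] at this
    exact indep_coeff hh.indep this.symm
  have hd : ∀ v, lin (g * h) v - lin (h * g) v = (m' v * l u' - m v * l' u) • x := by
    intro v
    rw [lin_mul_apply, lin_mul_apply, lx' v, lx v, map_add, map_add, map_add, map_add, map_smul,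
      map_smul, map_smul, map_smul, hg.fix, hh.fix, lx v, lx' v, lx u', lx' u, h1, h2]
    module
  set k := (h * g)⁻¹ * (g * h) with hk
  have hfx : lin (h * g) x = x := by rw [lin_mul_apply, hg.fix, hh.fix]
  have hkv : ∀ v, lin k v - v = (m' v * l u' - m v * l' u) • x := fun v => by
    rw [hk, commutator_shift, hd, map_smul, fix_inv hfx]
  have hk1 : k = 1 := by
    refine hNT k (X.mul_mem (X.inv_mem (X.mul_mem hh.mem hg.mem)) (X.mul_mem hg.mem hh.mem)) x ?_
      fun v => ?_
    · have := hkv x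
      rw [hl.2, hl'.2, zero_mul, zero_mul, sub_zero, zero_smul, sub_eq_zero] at this
      exact this
    · rw [hkv]; exact Submodule.smul_mem _ _ (Submodule.mem_span_singleton_self x)
  refine LinearMap.ext fun v => ?_
  have := hkv v
  rw [hk1, lin_one_apply, sub_self, eq_comm, smul_eq_zero, sub_eq_zero] at this
  have h3 := this.resolve_right (hg.indep.ne_zero 0)
  simp only [LinearMap.smul_apply, smul_eq_mul]
  linear_combination h3

variable [Fintype F]

/-- The case of an element moving its own centre. -/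
theorem no_moving_centre (hX : PairTrans X) (hNT : NoTransv X) {g₀ : GL (Fin 5) F} {x₀ u₀ : V}
    (h₀ : Cen X g₀ x₀ u₀) : lin g₀ u₀ = u₀ := by
  classical
  by_contra hJ₀
  -- every pair has an element moving its centre
  have hall : ∀ u : V, LinearIndependent F ![x₀, u] → ∃ g, ∃ l m : V →ₗ[F] F, Cen X g x₀ u ∧
      Coord g x₀ u l m ∧ l x₀ = 0 ∧ m x₀ = 0 ∧ m u = 0 ∧ l u ≠ 0 := by
    intro u hu
    obtain ⟨k, hk, a, b, ea, eb⟩ := hX x₀ u₀ x₀ u h₀.indep hu
    have ea' : lin k x₀ = a • x₀ := by simpa using ea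
    have eb' : lin k u₀ = b • u + (0 : F) • x₀ := by simpa using eb
    have ha : a ≠ 0 := fun h => h₀.indep.ne_zero 0 (by
      show x₀ = 0
      rw [← lin_inv_apply k x₀, ea', h, zero_smul, map_zero])
    have hb : b ≠ 0 := fun h => h₀.indep.ne_zero 1 (by
      show u₀ = 0
      rw [← lin_inv_apply k u₀, eb', h, zero_smul, zero_smul, add_zero, map_zero])
    obtain ⟨hcen, hJ, -⟩ := h₀.conj hk ha hb ea' eb'
    obtain ⟨l, m, hc, hlx, hmx, hmu⟩ := hcen.exists_coord
    refine ⟨_, l, m, hcen, hc, hlx, hmx, hmu, fun hl => hJ₀ (hJ ?_)⟩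
    rw [hc.apply, hl, hmu, zero_smul, zero_smul, add_zero, add_zero]
  -- the axis is unique
  have huniq : ∀ (u : V) (g h : GL (Fin 5) F) (l m l' m' : V →ₗ[F] F), Cen X g x₀ u → Cen X h x₀ u →
      Coord g x₀ u l m → Coord h x₀ u l' m' → m u = 0 → m' u = 0 → l u ≠ 0 →
      m' = (l' u / l u) • m := by
    intro u g h l m l' m' hg hh hc hc' hmu hm'u hlu
    have := axis_relation hNT hg hh hc hc' hmu hm'u
    rw [div_eq_inv_mul, mul_smul, ← this, inv_smul_smul₀ hlu]
  -- symmetry
  have hsymm : ∀ (u u' : V) (g h : GL (Fin 5) F) (l m l' m' : V →ₗ[F] F), Cen X g x₀ u → Cen X h x₀ u' →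
      Coord g x₀ u l m → Coord h x₀ u' l' m' → l' x₀ = 0 → m' x₀ = 0 → m' u' = 0 → l' u' ≠ 0 →
      m u = 0 → m u' = 0 → m' u = 0 := by
    intro u u' g h l m l' m' hg hh hc hc' hl'x hm'x hm'u' hl'u' hmu hmu'
    by_contra hne
    have eu : lin g u' = (1 : F) • u' + l u' • x₀ := by
      rw [hc.apply, hmu', zero_smul, add_zero, one_smul]
    obtain ⟨hcen, -, hcoord⟩ := hh.conj hg.mem one_ne_zero one_ne_zero
      (by rw [hg.fix, one_smul] : lin g x₀ = (1 : F) • x₀) eu
    have hc'' := hcoord l' m' hc'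
    have hm''u' : (((1 : F) • m') ∘ₗ lin g⁻¹) u' = 0 := by
      have e : lin g⁻¹ u' = u' - l u' • x₀ := by
        have := congrArg (lin g⁻¹) eu
        rw [lin_inv_apply, one_smul, map_add, map_smul, fix_inv hg.fix] at this
        exact eq_sub_of_add_eq this.symm
      simp only [LinearMap.smul_apply, LinearMap.comp_apply, e, map_sub, map_smul, hm'u', hm'x,
        smul_zero, sub_zero]
    rw [one_smul] at hm''u'
    have hax := huniq u' h _ l' m' _ _ hh hcen hc' hc''
      hm'u' (by rw [one_smul]; exact hm''u') hl'u'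
    set t := _ / l' u'
    have key : ∀ v, m' v = t * (m' v + m v * m' u) := by
      intro v
      have := DFunLike.congr_fun hax (lin g v)
      simp only [LinearMap.smul_apply, LinearMap.comp_apply, lin_inv_apply, one_smul, smul_eq_mul] at this
      rw [hc.apply v, map_add, map_add, map_smul, map_smul, hm'x, smul_zero, zero_add, smul_eq_mul] at this
      exact this
    have h1 := key u
    rw [hmu, zero_mul, add_zero] at h1
    have ht : t = 1 := by
      have : (t - 1) * m' u = 0 := by linear_combination -h1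
      exact sub_eq_zero.1 ((mul_eq_zero.1 this).resolve_right hne)
    refine hg.axis_ne hNT hc (LinearMap.ext fun v => ?_)
    have h2 := key v
    rw [ht, one_mul] at h2
    have h3 : m v * m' u = 0 := by linear_combination -h2
    exact (mul_eq_zero.1 h3).resolve_right hne
  -- a pair with different axes
  have hx : x₀ ≠ 0 := h₀.indep.ne_zero 0
  obtain ⟨g, l, m, hg, hc, hlx, hmx, hmu, hlu⟩ := hall u₀ h₀.indep
  have hm0 : m ≠ 0 := hg.axis_ne hNT hc
  obtain ⟨w, hwm, hw⟩ : ∃ w, m w = 0 ∧ w ∉ Submodule.span F {x₀, u₀} := by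
    by_contra hcon
    push Not at hcon
    have hle : LinearMap.ker m ≤ Submodule.span F {x₀, u₀} := fun w hw => hcon w hw
    have h1 := Submodule.finrank_mono hle
    have h2 : Module.finrank F (Submodule.span F ({x₀, u₀} : Set V)) ≤ 2 := by
      classical
      have := finrank_span_finset_le_card (R := F) ({x₀, u₀} : Finset V)
      rw [Finset.coe_pair] at this
      exact this.trans Finset.card_le_two
    have h3 := LinearMap.finrank_range_add_finrank_ker m
    have h4 := (LinearMap.range m).finrank_le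
    rw [Module.finrank_self] at h4
    rw [Module.finrank_fin_fun] at h3
    omega
  obtain ⟨u', hu'm, hu', hlu'⟩ : ∃ u', m u' = 0 ∧ u' ∉ Submodule.span F {x₀, u₀} ∧ l u' ≠ 0 := by
    by_cases hlw : l w = 0
    · refine ⟨u₀ + w, by rw [map_add, hmu, hwm, add_zero], fun h => hw ?_, by rwa [map_add, hlw, add_zero]⟩
      have := Submodule.sub_mem _ h (Submodule.subset_span (Set.mem_insert_of_mem _ rfl) :
        u₀ ∈ Submodule.span F {x₀, u₀})
      simpa using this
    · exact ⟨w, hwm, hw, hlw⟩
  have hind' : LinearIndependent F ![x₀, u'] :=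
    (indep_iff hx).2 fun h => hu' (Submodule.span_mono (Set.singleton_subset_iff.2 (Set.mem_insert _ _)) h)
  obtain ⟨h, l', m', hh, hc', hl'x, hm'x, hm'u', hl'u'⟩ := hall u' hind'
  have hm'u : m' u₀ = 0 := hsymm u₀ u' g h l m l' m' hg hh hc hc' hl'x hm'x hm'u' hl'u' hmu hu'm
  have hrel := axis_relation hNT hg hh hc hc' hu'm hm'u
  have hprop : m' = ((l u')⁻¹ * l' u₀) • m := by rw [mul_smul, ← hrel, inv_smul_smul₀ hlu']
  set s := (l u')⁻¹ * l' u₀
  have hs : s ≠ 0 := fun h0 => hh.axis_ne hNT hc' (by rw [hprop, h0, zero_smul])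
  -- a functional separating `u'`
  obtain ⟨φ, hφu', hφ⟩ := GeoClasses.exists_functional hu'
  have hφx : φ x₀ = 0 := hφ _ (Submodule.subset_span (Set.mem_insert _ _))
  have hφu : φ u₀ = 0 := hφ _ (Submodule.subset_span (Set.mem_insert_of_mem _ rfl))
  have hφ0 : φ ≠ 0 := fun h => by simp [h] at hφu'
  obtain ⟨k, hk, a, c, ha, hc0, ea, ek⟩ :=
    hX.exists_dual (by norm_num) hx hm0 hφ0 (by simp [hmx, hφx])
  set w₁ := lin k u₀ with hw₁
  have ew : lin k u₀ = (1 : F) • w₁ + (0 : F) • x₀ := by simp [hw₁]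
  obtain ⟨hcen₁, hJ₁, hcoord₁⟩ := hg.conj hk ha one_ne_zero ea ew
  obtain ⟨e, le, me, he, hce, hlex, hmex, hmew, hlew⟩ := hall w₁ hcen₁.indep
  have hu₁ : (((1 : F) • m) ∘ₗ lin k⁻¹) w₁ = 0 := by
    simp [hw₁, hmu, Matrix.mulVec_mulVec]
  have hax := huniq w₁ e _ le me _ _ he hcen₁ hce (hcoord₁ l m hc) hmew
    (by rw [one_smul] at hu₁; rw [one_smul]; exact hu₁) hlew
  have hφk : ∀ v, φ v = c * (((1 : F) • m) ∘ₗ lin k⁻¹) v := fun v => by
    simp only [LinearMap.smul_apply, LinearMap.comp_apply, one_smul]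
    rw [← ek, lin_apply_inv]
  set t := _ / le w₁
  have hme : ∀ v, φ v = c * (t * me v) := fun v => by
    rw [hφk, hax]; rfl
  have hct : c * t ≠ 0 := fun h0 => hφ0 (LinearMap.ext fun v => by rw [hme, ← mul_assoc, h0, zero_mul]; rfl)
  have hmeu : me u₀ = 0 := by
    have := hme u₀
    rw [hφu, ← mul_assoc, eq_comm, mul_eq_zero] at this
    exact this.resolve_left hct
  have hmw₁ : m w₁ = 0 := hsymm w₁ u₀ e g le me l m he hg hce hc hlx hmx hmu hlu hmew hmeu
  have hm'w₁ : m' w₁ = 0 := by rw [hprop, LinearMap.smul_apply, hmw₁, smul_zero]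
  have hmeu' : me u' = 0 := hsymm u' w₁ h e l' m' le me hh he hc' hce hlex hmex hmew hlew hm'u' hm'w₁
  have := hme u'
  rw [hφu', hmeu', mul_zero, mul_zero] at this
  exact one_ne_zero this

/-- The fixed space of an element. -/
abbrev fixSp (g : GL (Fin 5) F) : Submodule F (Fin 5 → F) := LinearMap.ker (lin g - LinearMap.id)

lemma mem_fixSp {v : V} : v ∈ fixSp g ↔ lin g v = v := by
  simp [fixSp, sub_eq_zero]

/-- `X` contains a transvection. -/
theorem exists_transvection (hX : PairTrans X) : ¬ NoTransv X := by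
  intro hNT
  classical
  have hfix : ∀ {g : GL (Fin 5) F} {x u : V}, Cen X g x u → lin g u = u :=
    fun hg => no_moving_centre hX hNT hg
  -- the symmetric relation
  have hsym : ∀ {g h : GL (Fin 5) F} {x u u' : V}, Cen X g x u → Cen X h x u' →
      lin h u = u → lin g u' = u' := by
    intro g h x u u' hg hh hu
    obtain ⟨l, m, hc, hlx, hmx, hmu⟩ := hg.exists_coord
    obtain ⟨l', m', hc', hlx', hmx', hmu'⟩ := hh.exists_coord
    have hu0 : l' u = 0 ∧ m' u = 0 := by
      have := hc' u
      rw [hu, sub_self] at this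
      exact indep_coeff hh.indep this.symm
    have hlu : l u = 0 := by
      have := hc u
      rw [hfix hg, sub_self] at this
      exact (indep_coeff hg.indep this.symm).1
    have hl'u' : l' u' = 0 := by
      have := hc' u'
      rw [hfix hh, sub_self] at this
      exact (indep_coeff hh.indep this.symm).1
    set w' := lin g u' - u' with hw'
    have ew' : w' = l u' • x + m u' • u := hc u'
    have hgw : lin g w' = w' := by rw [ew', map_add, map_smul, map_smul, hg.fix, hfix hg]
    have hhw : lin h w' = w' := by rw [ew', map_add, map_smul, map_smul, hh.fix, hu]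
    have hd : ∀ v, lin (g * h) v - lin (h * g) v = m' v • w' := by
      intro v
      rw [lin_mul_apply, lin_mul_apply, hc'.apply v, hc.apply v, map_add, map_add, map_add, map_add,
        map_smul, map_smul, map_smul, map_smul, hg.fix, hh.fix, hc.apply v, hc'.apply v,
        hc.apply u', hu, ew']
      module
    set k := (h * g)⁻¹ * (g * h) with hk
    have hkv : ∀ v, lin k v - v = m' v • w' := fun v => by
      rw [hk, commutator_shift, hd, map_smul, fix_inv (by rw [lin_mul_apply, hgw, hhw])]
    have hm'w : m' w' = 0 := by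
      rw [ew', map_add, map_smul, map_smul, hmx', hu0.2, smul_zero, smul_zero, add_zero]
    have hk1 : k = 1 := hNT k (X.mul_mem (X.inv_mem (X.mul_mem hh.mem hg.mem)) (X.mul_mem hg.mem hh.mem))
      w' (by rw [← sub_eq_zero, hkv, hm'w, zero_smul])
      fun v => by rw [hkv]; exact Submodule.smul_mem _ _ (Submodule.mem_span_singleton_self w')
    obtain ⟨v, hv⟩ : ∃ v, m' v ≠ 0 := by
      by_contra hcon
      push Not at hcon
      exact hh.axis_ne hNT hc' (LinearMap.ext fun v => by simp [hcon v])
    have := hkv v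
    rw [hk1, lin_one_apply, sub_self, eq_comm, smul_eq_zero] at this
    exact sub_eq_zero.1 (this.resolve_left hv)
  -- fixed spaces have dimension three
  have hdim : ∀ {g : GL (Fin 5) F} {x u : V}, Cen X g x u → Module.finrank F (fixSp g) = 3 := by
    intro g x u hg
    have h1 := LinearMap.finrank_range_add_finrank_ker (lin g - LinearMap.id)
    rw [Module.finrank_fin_fun] at h1
    have hle : LinearMap.range (lin g - LinearMap.id) ≤ Submodule.span F {x, u} := by
      rintro _ ⟨v, rfl⟩
      exact hg.img v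
    have h2 : Module.finrank F (LinearMap.range (lin g - LinearMap.id)) ≤ 2 := by
      refine (Submodule.finrank_mono hle).trans ?_
      have := finrank_span_finset_le_card (R := F) ({x, u} : Finset V)
      rw [Finset.coe_pair] at this
      exact this.trans Finset.card_le_two
    show Module.finrank F (LinearMap.ker (lin g - LinearMap.id)) = 3
    suffices ¬ Module.finrank F (LinearMap.range (lin g - LinearMap.id)) ≤ 1 by omega
    intro h1'
    obtain ⟨w, hw⟩ := ((Submodule.finrank_le_one_iff_isPrincipal _).1 h1').principal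
    refine hg.ne_one (hNT g hg.mem w ?_ fun v => hw ▸ LinearMap.mem_range_self (lin g - LinearMap.id) v)
    have hwr : w ∈ LinearMap.range (lin g - LinearMap.id) := hw ▸ Submodule.mem_span_singleton_self w
    obtain ⟨c, d, hcd⟩ := Submodule.mem_span_pair.1 (hle hwr)
    rw [← hcd, map_add, map_smul, map_smul, hg.fix, hfix hg]
  -- a centre in the fixed space has the same fixed space
  have hsame : ∀ {g h : GL (Fin 5) F} {x u w : V}, Cen X g x u → Cen X h x w → lin g w = w →
      w ∉ Submodule.span F {x, u} → fixSp g = fixSp h := by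
    intro g h x u w hg hh hw hwn
    have hu : lin h u = u := hsym hh hg hw
    have hli : LinearIndependent F ![x, u] := hg.indep
    set S : Submodule F V := Submodule.span F {x, u} ⊔ Submodule.span F {w}
    have hS : Module.finrank F S = 3 := by
      rw [finrank_sup_singleton hwn]
      have := finrank_span_eq_card hli
      rw [Matrix.range_cons, Matrix.range_cons, Matrix.range_empty, Set.union_empty,
        Set.singleton_union] at this
      rw [this]; simp
    have hleg : S ≤ fixSp g := by
      refine sup_le (Submodule.span_le.2 ?_) ((Submodule.span_singleton_le_iff_mem _ _).2 (mem_fixSp.2 hw))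
      rintro v (rfl | rfl)
      · exact mem_fixSp.2 hg.fix
      · exact mem_fixSp.2 (hfix hg)
    have hleh : S ≤ fixSp h := by
      refine sup_le (Submodule.span_le.2 ?_) ((Submodule.span_singleton_le_iff_mem _ _).2 (mem_fixSp.2 (hfix hh)))
      rintro v (rfl | rfl)
      · exact mem_fixSp.2 hh.fix
      · exact mem_fixSp.2 hu
    rw [← Submodule.eq_of_le_of_finrank_eq hleg (by rw [hS, hdim hg]),
      ← Submodule.eq_of_le_of_finrank_eq hleh (by rw [hS, hdim hh])]
  obtain ⟨g, x, u, hg⟩ := exists_cen hX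
  obtain ⟨l, m, hc, hlx, hmx, hmu⟩ := hg.exists_coord
  have hm0 : m ≠ 0 := hg.axis_ne hNT hc
  obtain ⟨u', hu'⟩ : ∃ v, m v ≠ 0 := by
    by_contra hcon
    push Not at hcon
    exact hm0 (LinearMap.ext fun v => by simp [hcon v])
  have hx : x ≠ 0 := hg.indep.ne_zero 0
  have hxu' : LinearIndependent F ![x, u'] := (indep_iff hx).2 fun hmem => hu' (by
    obtain ⟨c, rfl⟩ := Submodule.mem_span_singleton.1 hmem
    rw [map_smul, hmx, smul_zero])
  obtain ⟨h, hh⟩ := cen_all hX hxu'
  -- `w` fixed by `h`, on the axis of `g`, independent of `x`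
  obtain ⟨w, hwh, hwm, hwx⟩ : ∃ w, lin h w = w ∧ m w = 0 ∧ w ∉ Submodule.span F {x} := by
    by_contra hcon
    push Not at hcon
    have hle : fixSp h ⊓ LinearMap.ker m ≤ Submodule.span F {x} := fun w hw =>
      hcon w (mem_fixSp.1 hw.1) hw.2
    have h1 := Submodule.finrank_mono hle
    rw [finrank_span_singleton hx] at h1
    have h2 := Submodule.finrank_sup_add_finrank_inf_eq (fixSp h) (LinearMap.ker m)
    have h3 := (fixSp h ⊔ LinearMap.ker m).finrank_le
    rw [Module.finrank_fin_fun] at h3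
    have h4 := LinearMap.finrank_range_add_finrank_ker m
    have h5 := (LinearMap.range m).finrank_le
    rw [Module.finrank_self] at h5
    rw [Module.finrank_fin_fun] at h4
    rw [hdim hh] at h2
    omega
  have hxw : LinearIndependent F ![x, w] := (indep_iff hx).2 hwx
  obtain ⟨e, he⟩ := cen_all hX hxw
  have hwn : w ∉ Submodule.span F {x, u'} := by
    intro hmem
    obtain ⟨a, b, rfl⟩ := Submodule.mem_span_pair.1 hmem
    rw [map_add, map_smul, map_smul, hmx, smul_zero, zero_add, smul_eq_mul, mul_eq_zero] at hwm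
    rw [hwm.resolve_right hu', zero_smul, add_zero] at hwx
    exact hwx (Submodule.smul_mem _ _ (Submodule.mem_span_singleton_self x))
  have hKe : fixSp h = fixSp e := hsame hh he hwh hwn
  have ew : lin g w = (1 : F) • w + l w • x := by
    rw [hc.apply, hwm, zero_smul, add_zero, one_smul]
  obtain ⟨he', -, -⟩ := he.conj hg.mem one_ne_zero one_ne_zero
    (by rw [hg.fix, one_smul] : lin g x = (1 : F) • x) ew
  have hKe' : fixSp h = fixSp (g * e * g⁻¹) := hsame hh he' hwh hwn
  have h1 : lin (g * e * g⁻¹) u' = u' := by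
    rw [← mem_fixSp, ← hKe', mem_fixSp]; exact hfix hh
  have h2 : lin e (lin g⁻¹ u') = lin g⁻¹ u' := by
    have := congrArg (lin g⁻¹) h1
    rwa [lin_mul_apply, lin_mul_apply, lin_inv_apply] at this
  have h3 : lin h (lin g⁻¹ u') = lin g⁻¹ u' := by
    rw [← mem_fixSp, hKe, mem_fixSp]; exact h2
  set y := lin g⁻¹ u' with hy
  have hgy : u' = y + (l y • x + m y • u) := by rw [← hc.apply, hy, lin_apply_inv]
  have hmy : m y = m u' := by
    conv_rhs => rw [hgy]
    rw [map_add, map_add, map_smul, map_smul, hmx, hmu, smul_zero, smul_zero, add_zero, add_zero]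
  have hmy0 : m y ≠ 0 := hmy ▸ hu'
  have h4 : lin h u' = u' := hfix hh
  rw [hgy, map_add, map_add, map_smul, map_smul, h3, hh.fix, add_right_inj, add_right_inj] at h4
  have hhu : lin h u = u := smul_right_injective V hmy0 h4
  have := hsym hg hh hhu
  rw [hc.apply, add_eq_left] at this
  exact hu' (indep_coeff hg.indep this).2

end Cfsg.Agent.MaxSub.SingerFive
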