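import Cfsg.Agent.MaxSub.SingerFive.Def
import Cfsg.Agent.MaxSub.SingerGroup.Config
import Cfsg.Agent.MaxSub.SingerTwoTrans.Arith
import Cfsg.Agent.Linear.Orders

/-!
Subgroups of `SL₅(q)` properly containing a Singer normaliser are two-transitive on points.
-/

set_option autoImplicit false
set_option linter.style.haveILetI false

namespace Cfsg.Agent.MaxSub.SingerFive

open Matrix Cfsg.Geo
open scoped LinearAlgebra.Projectivization MatrixGroups
open SingerGroup

variable {F : Type*} [Field F]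

theorem card_specialLinear_five [Fintype F] :
    Nat.card (specialLinear (Fin 5) F) = Fintype.card F ^ 10 * (Fintype.card F - 1) ^ 4 *
      (Fintype.card F + 1) ^ 2 * (Fintype.card F ^ 2 + 1) *
      (Fintype.card F ^ 2 + Fintype.card F + 1) *
      (Fintype.card F ^ 4 + Fintype.card F ^ 3 + Fintype.card F ^ 2 + Fintype.card F + 1) := by
  classical
  have h1 := Cfsg.Agent.Linear.card_SL_mul (F := F) 5
  rw [show Nat.card (specialLinear (Fin 5) F) = Nat.card (Matrix.SpecialLinearGroup (Fin 5) F) from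
    Nat.card_congr Cfsg.Agent.Linear.slEquivKerDet.toEquiv.symm]
  have hq := Fintype.one_lt_card (α := F)
  refine Nat.eq_of_mul_eq_mul_left (show 0 < Fintype.card F - 1 by omega) (h1.trans ?_)
  generalize Fintype.card F = q at hq ⊢
  have hle : ∀ i, i ≤ 5 → q ^ i ≤ q ^ 5 := fun i hi => Nat.pow_le_pow_right (by omega) hi
  simp only [Fin.prod_univ_five, Fin.coe_ofNat_eq_mod, Nat.zero_mod, Nat.one_mod, Nat.reduceMod]
  zify [hle 0 (by norm_num), hle 1 (by norm_num), hle 2 (by norm_num), hle 3 (by norm_num),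
    hle 4 (by norm_num), show 1 ≤ q by omega]
  ring

/-- Overgroups of a Singer normaliser in `SL₅(q)` not inside it are transitive on pairs of
independent points. -/
theorem pairTrans [Fintype F] {K : Subalgebra F (Matrix (Fin 5) (Fin 5) F)}
    (hK : IsFieldSubalgebra 5 K) {X : Subgroup (GL (Fin 5) F)}
    (hNX : subalgebraNormalizer K ⊓ specialLinear (Fin 5) F ≤ X)
    (hXS : X ≤ specialLinear (Fin 5) F) (hne : ¬ X ≤ subalgebraNormalizer K) : PairTrans X := by
  classical
  haveI : Fact (5 : ℕ).Prime := ⟨by norm_num⟩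
  set q := Fintype.card F with hqdef
  have hq : 2 ≤ q := Fintype.one_lt_card
  have hodd : Odd 5 := ⟨2, rfl⟩
  obtain ⟨m, hm, hmn⟩ := exists_m (Fact.out : (5 : ℕ).Prime) hodd hq
  set c := Nat.gcd 5 (q - 1) with hc
  have hM : bigM q 5 = q ^ 4 + q ^ 3 + q ^ 2 + q + 1 := by
    simp [bigM, Finset.sum_range_succ]
    ring
  have hc15 : c = 1 ∨ c = 5 := (Nat.dvd_prime (by norm_num)).mp (Nat.gcd_dvd_left _ _)
  have hlarge : 5 * 5 + 1 < m ∧ 5 * (c + 2) < m := by
    rcases hc15 with h | h
    · rw [h, one_mul] at hm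
      have h2 := Nat.pow_le_pow_left hq 2
      have h3 := Nat.pow_le_pow_left hq 3
      have h4 := Nat.pow_le_pow_left hq 4
      rw [h]
      constructor <;> omega
    · rw [h] at hm
      have h5 : 5 ∣ q - 1 := h ▸ Nat.gcd_dvd_right _ _
      have hq6 : 6 ≤ q := by have := Nat.le_of_dvd (by omega) h5; omega
      have h2 := Nat.pow_le_pow_left hq6 2
      have h3 := Nat.pow_le_pow_left hq6 3
      have h4 := Nat.pow_le_pow_left hq6 4
      rw [h]
      constructor <;> omega
  haveI : Finite PGL(5, F) := Finite.of_surjective _ Matrix.ProjGenLinGroup.mk_surjective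
  -- the order of the image
  have hcardX : Nat.card X = c * Nat.card (proj X) := by
    let f : X →* PGL(5, F) := Matrix.ProjGenLinGroup.mk.comp X.subtype
    have hrange : f.range = proj X := by rw [MonoidHom.range_comp, Subgroup.range_subtype]
    have h1 := Subgroup.card_mul_index f.ker
    rw [Subgroup.index_ker, hrange] at h1
    have hscX : scalars (Fin 5) F ⊓ specialLinear (Fin 5) F ≤ X := fun g hg =>
      singerSub_le hK hNX ⟨scalar_mem_K hg.1, hg.2⟩
    have h2 : Nat.card f.ker = c := by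
      rw [hc, hqdef, ← card_scalars_sl (F := F) (n := 5)]
      refine Nat.card_congr
        { toFun := fun x => ⟨(x.1 : GL (Fin 5) F), mk_eq_one_iff.mp x.2, hXS x.1.2⟩
          invFun := fun y => ⟨⟨y.1, hscX y.2⟩, mk_eq_one_iff.mpr y.2.1⟩
          left_inv := fun _ => rfl
          right_inv := fun _ => rfl }
    rw [← h1, h2]
  have hXdvd : Nat.card X ∣ q ^ 10 * (q - 1) ^ 4 * (q + 1) ^ 2 * (q ^ 2 + 1) * (q ^ 2 + q + 1) *
      (q ^ 4 + q ^ 3 + q ^ 2 + q + 1) := by
    rw [← card_specialLinear_five]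
    exact Subgroup.card_dvd_of_le hXS
  -- two-transitivity
  have h2t : MulAction.IsMultiplyPretransitive (proj X) (ℙ F (Fin 5 → F)) 2 := by
    obtain ⟨v, hv⟩ : ∃ v : Fin 5 → F, v ≠ 0 := exists_ne 0
    let p := Projectivization.mk F v hv
    obtain ⟨k, hk, hcfg⟩ := exists_cfg hodd hK hNX hXS hne hm hmn hlarge.1 hlarge.2 p
    replace hk : k ≤ c := hk
    obtain ⟨a, b, hab, hbk, hdvd, h2⟩ := SingerTwoTrans.exists_degree hcfg
    have hbc : b = c := by
      by_contra hbc
      have hc5 : c = 5 := by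
        rcases hc15 with h | h
        · omega
        · exact h
      have hq5 : q % 5 = 1 := by
        have h5 : 5 ∣ q - 1 := hc5 ▸ Nat.gcd_dvd_right _ _
        omega
      have hqpp : IsPrimePow q := FiniteField.isPrimePow_card F
      refine SingerTwoTrans.no_degree hqpp hq5 a b hab (by omega) (dvd_trans ?_ hXdvd)
      rw [hcardX, hc5]
      refine dvd_trans (dvd_of_eq ?_) (mul_dvd_mul_left 5 hdvd)
      rw [← hM, hm, hc5]
      have : b * (5 * m) = 5 * (b * (m - 1)) + 5 * b := by
        obtain ⟨t, rfl⟩ : ∃ t, m = t + 1 := ⟨m - 1, by omega⟩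
        rw [Nat.add_sub_cancel]
        ring
      omega
    have hkc : k = c := by omega
    have htrans := h2 (by omega)
    have huniv : MulAction.orbit (proj X) p = Set.univ := by
      refine Set.eq_of_subset_of_ncard_le (Set.subset_univ _) ?_
      rw [Set.ncard_univ, ← Nat.card_coe_set_eq, hcfg.card_Ω, hkc, ← hm, Projectivization.card_of_finrank F
        (Fin 5 → F) (Module.finrank_fin_fun F), Nat.card_eq_fintype_card]
      rfl
    rw [MulAction.is_two_pretransitive_iff] at htrans ⊢
    intro x y z w hxy hzw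
    obtain ⟨g, hg1, hg2⟩ := htrans (a := ⟨x, huniv ▸ Set.mem_univ x⟩)
      (b := ⟨y, huniv ▸ Set.mem_univ y⟩) (c := ⟨z, huniv ▸ Set.mem_univ z⟩)
      (d := ⟨w, huniv ▸ Set.mem_univ w⟩) (fun h => hxy (congrArg Subtype.val h))
      (fun h => hzw (congrArg Subtype.val h))
    exact ⟨g, congrArg Subtype.val hg1, congrArg Subtype.val hg2⟩
  intro u v u' v' huv huv'
  have h0 := huv.ne_zero 0
  have h1 := huv.ne_zero 1
  have h0' := huv'.ne_zero 0
  have h1' := huv'.ne_zero 1
  simp only [Matrix.cons_val_zero, Matrix.cons_val_one] at h0 h1 h0' h1'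
  have hne1 : Projectivization.mk F u h0 ≠ Projectivization.mk F v h1 := by
    rw [Ne, Projectivization.mk_eq_mk_iff']
    rintro ⟨t, ht⟩
    exact (LinearIndependent.pair_iff' h1).mp (LinearIndependent.pair_symm_iff.mp huv) t ht
  have hne2 : Projectivization.mk F u' h0' ≠ Projectivization.mk F v' h1' := by
    rw [Ne, Projectivization.mk_eq_mk_iff']
    rintro ⟨t, ht⟩
    exact (LinearIndependent.pair_iff' h1').mp (LinearIndependent.pair_symm_iff.mp huv') t ht
  rw [MulAction.is_two_pretransitive_iff] at h2t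
  obtain ⟨g, hg1, hg2⟩ := h2t hne1 hne2
  obtain ⟨y, hy, hyg⟩ : ∃ y ∈ X, Matrix.ProjGenLinGroup.mk y = (g : PGL(5, F)) := g.2
  change (g : PGL(5, F)) • (Projectivization.mk F u h0) = _ at hg1
  change (g : PGL(5, F)) • (Projectivization.mk F v h1) = _ at hg2
  rw [← hyg, Projectivization.PGL.mk_smul_mk, Projectivization.mk_eq_mk_iff'] at hg1 hg2
  obtain ⟨a, ha⟩ := hg1
  obtain ⟨b, hb⟩ := hg2
  exact ⟨y, hy, a, b, ha.symm, hb.symm⟩

end Cfsg.Agent.MaxSub.SingerFive
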